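import Mathlib
import Cfsg.Agent.Lib.Helper14.MinSp.Defs

/-! # S2141 farm (helper14), piece [DUAL] (helper63) -/

set_option autoImplicit false

namespace Cfsg.Agent.Lib.Helper63.MinSp

open Matrix Cfsg.Agent.Lib.Helper13 Cfsg.Agent.Lib.Helper5 Cfsg.Agent.Lib.Helper14.MinSp

variable {F : Type*} [Field F] {m : ℕ}

namespace DUAL

theorem index_ker_eq {p : ℕ} [Fact p.Prime] {M : Type*} [AddCommGroup M] [Module (ZMod p) M]
    (f : M →ₗ[ZMod p] ZMod p) (hf : f ≠ 0) : (LinearMap.ker f).toAddSubgroup.index = p := by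
  have e : (LinearMap.ker f).toAddSubgroup = f.toAddMonoidHom.ker := by
    ext x
    simp [AddMonoidHom.mem_ker]
  have hs : Function.Surjective f.toAddMonoidHom := LinearMap.surjective_of_ne_zero hf
  rw [e, AddSubgroup.index_ker, AddMonoidHom.range_eq_top.2 hs, AddSubgroup.card_top, Nat.card_zmod]

theorem exists_functional {p : ℕ} [Fact p.Prime] {M : Type*} [AddCommGroup M] [Module (ZMod p) M]
    (A : AddSubgroup M) (hA : A ≠ ⊤) :
    ∃ f : M →ₗ[ZMod p] ZMod p, f ≠ 0 ∧ A ≤ (LinearMap.ker f).toAddSubgroup := by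
  have hlt : AddSubgroup.toZModSubmodule p A < ⊤ := by
    rw [lt_top_iff_ne_top]
    intro h
    apply hA
    rw [eq_top_iff]
    intro x _
    have : x ∈ AddSubgroup.toZModSubmodule p A := by rw [h]; trivial
    simpa using this
  obtain ⟨f, hf, hle⟩ := Submodule.exists_le_ker_of_lt_top _ hlt
  refine ⟨f, hf, fun x hx => ?_⟩
  exact hle (by simpa using hx)

theorem eq_ker_of_prime_index {p : ℕ} [Fact p.Prime] {M : Type*} [AddCommGroup M]
    [Module (ZMod p) M] (K : AddSubgroup M) (hK : K.index.Prime) :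
    ∃ f : M →ₗ[ZMod p] ZMod p, f ≠ 0 ∧ K = (LinearMap.ker f).toAddSubgroup := by
  have hKt : K ≠ ⊤ := by
    rintro rfl
    rw [AddSubgroup.index_top] at hK
    exact Nat.not_prime_one hK
  obtain ⟨f, hf, hle⟩ := exists_functional (p := p) K hKt
  refine ⟨f, hf, le_antisymm hle ?_⟩
  have h1 := AddSubgroup.relIndex_mul_index hle
  rw [index_ker_eq f hf] at h1
  have h2 : K.relIndex (LinearMap.ker f).toAddSubgroup = 1 := by
    have hdvd : p ∣ K.index := ⟨_, by rw [← h1, mul_comm]⟩
    have hp : p = K.index := (Nat.prime_dvd_prime_iff_eq (Fact.out) hK).1 hdvd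
    have hp0 : 0 < p := (Fact.out : p.Prime).pos
    rw [← hp] at h1
    exact Nat.eq_of_mul_eq_mul_right hp0 (by rw [h1, one_mul])
  exact AddSubgroup.relIndex_eq_one.1 h2

end DUAL

/-- [DUAL] -/
theorem exists_prime_index [Fintype F] (A : AddSubgroup F) (hA : A ≠ ⊤) :
    ∃ K : AddSubgroup F, A ≤ K ∧ K.index.Prime := by
  obtain ⟨p, hp⟩ := CharP.exists F
  haveI : Fact p.Prime := ⟨CharP.char_is_prime F p⟩
  letI := ZMod.algebra F p
  obtain ⟨f, hf, hle⟩ := DUAL.exists_functional (p := p) A hA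
  refine ⟨_, hle, ?_⟩
  rw [DUAL.index_ker_eq f hf]
  exact Fact.out

/-- [DUAL] -/
theorem card_perp [Fintype F] (K : AddSubgroup F) (hK : K.index.Prime)
    (D : AddSubgroup (Fin m ⊕ Fin m → F)) :
    Nat.card D * Nat.card (perp K D) = Fintype.card F ^ (2 * m) := by
  obtain ⟨p, hp⟩ := CharP.exists F
  haveI : Fact p.Prime := ⟨CharP.char_is_prime F p⟩
  letI := ZMod.algebra F p
  obtain ⟨f, hf, rfl⟩ := DUAL.eq_ker_of_prime_index (p := p) K hK
  let B : LinearMap.BilinForm (ZMod p) (Fin m ⊕ Fin m → F) :=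
    LinearMap.mk₂ (ZMod p) (fun v w => f (Cfsg.sympForm m F v w))
      (fun v v' w => by rw [sympForm_add_left, map_add])
      (fun c v w => ZMod.map_smul (AddMonoidHom.mk' (fun v => f (Cfsg.sympForm m F v w))
        (fun v v' => by rw [sympForm_add_left, map_add])) c v)
      (fun v w w' => by rw [sympForm_add_right, map_add])
      (fun c v w => ZMod.map_smul (AddMonoidHom.mk' (fun w => f (Cfsg.sympForm m F v w))
        (fun w w' => by rw [sympForm_add_right, map_add])) c w)
  have hB : ∀ v w, B v w = f (Cfsg.sympForm m F v w) := fun v w => rfl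
  have hleft : ∀ x : Fin m ⊕ Fin m → F, (∀ y, f (Cfsg.sympForm m F x y) = 0) → x = 0 := by
    intro x hx
    apply sympForm_nondeg
    intro w0
    by_contra hs
    obtain ⟨y0, hy0⟩ : ∃ y0, f y0 ≠ 0 := by
      by_contra h
      push Not at h
      exact hf (LinearMap.ext h)
    apply hy0
    have := hx ((y0 / Cfsg.sympForm m F x w0) • w0)
    rwa [sympForm_smul_right, div_mul_cancel₀ _ hs] at this
  have hnd : B.Nondegenerate := by
    constructor
    · intro x hx
      exact hleft x hx
    · intro y hy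
      apply hleft y
      intro x
      have := hy x
      rw [hB, sympForm_swap, map_neg, neg_eq_zero] at this
      exact this
  set D' := AddSubgroup.toZModSubmodule p D with hD'
  have hc1 : Nat.card D = Nat.card D' :=
    Nat.card_congr (Equiv.subtypeEquivRight (fun v => by simp [hD']))
  have hc2 : Nat.card (perp (LinearMap.ker f).toAddSubgroup D) = Nat.card (B.orthogonal D') := by
    apply Nat.card_congr
    apply Equiv.subtypeEquivRight
    intro v
    rw [LinearMap.BilinForm.mem_orthogonal_iff]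
    constructor
    · intro h n hn
      have h1 : Cfsg.sympForm m F v n ∈ (LinearMap.ker f).toAddSubgroup :=
        h n (by simpa [hD'] using hn)
      have h2 : f (Cfsg.sympForm m F v n) = 0 := h1
      rw [hB, sympForm_swap, map_neg, h2, neg_zero]
    · intro h n hn
      have h1 := h n (by simpa [hD'] using hn)
      rw [hB, sympForm_swap, map_neg, neg_eq_zero] at h1
      exact h1
  have h1 := Module.natCard_eq_pow_finrank (K := ZMod p) (V := D')
  have h2 := Module.natCard_eq_pow_finrank (K := ZMod p) (V := B.orthogonal D')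
  have h3 := Module.natCard_eq_pow_finrank (K := ZMod p) (V := (Fin m ⊕ Fin m → F))
  have h4 := LinearMap.BilinForm.finrank_orthogonal hnd D'
  have h5 : Module.finrank (ZMod p) D' ≤ Module.finrank (ZMod p) (Fin m ⊕ Fin m → F) :=
    Submodule.finrank_le D'
  have h6 : Nat.card (Fin m ⊕ Fin m → F) = Fintype.card F ^ (2 * m) := by
    simp [Nat.card_eq_fintype_card, two_mul]
  rw [hc1, hc2, h1, h2, h4, ← pow_add, Nat.add_sub_cancel' h5, ← h3, h6]

/-- [DUAL] -/
theorem iso_lemma [Fintype F] (A : AddSubgroup F) (hA : A ≠ ⊤)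
    (D : AddSubgroup (Fin m ⊕ Fin m → F))
    (h : ∀ w ∈ D, ∀ w' ∈ D, Cfsg.sympForm m F w w' ∈ A) :
    Nat.card D ^ 2 ≤ Fintype.card F ^ (2 * m) := by
  obtain ⟨K, hAK, hK⟩ := exists_prime_index A hA
  rw [← card_perp K hK D, sq]
  apply Nat.mul_le_mul_left
  have hle : D ≤ perp K D := fun w hw w' hw' => hAK (h w hw w' hw')
  exact Nat.card_le_card_of_injective _ (AddSubgroup.inclusion_injective hle)

end Cfsg.Agent.Lib.Helper63.MinSp
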