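import Mathlib
import Cfsg.Agent.Lib.Helper14.MinSp.Defs

/-! # S2141 farm (helper14), piece [LAM] (helper63) -/

set_option autoImplicit false

namespace Cfsg.Agent.Lib.Helper63.MinSp

open Matrix Cfsg.Agent.Lib.Helper13 Cfsg.Agent.Lib.Helper5 Cfsg.Agent.Lib.Helper14.MinSp

variable {F : Type*} [Field F] {m : ℕ}

namespace LAM

/-- the multipliers of `A` -/
def mult (A : AddSubgroup F) : AddSubgroup F where
  carrier := {c | ∀ a ∈ A, c * a ∈ A}
  zero_mem' := fun a _ => by rw [zero_mul]; exact A.zero_mem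
  add_mem' := fun {c d} hc hd a ha => by rw [add_mul]; exact A.add_mem (hc a ha) (hd a ha)
  neg_mem' := fun {c} hc a ha => by rw [neg_mul]; exact A.neg_mem (hc a ha)

theorem mult_inj [Finite F] (A : AddSubgroup F) {x : F} (hx : x ∉ A) {d : F} (hd : d ∈ mult A)
    (hdx : d * x ∈ A) : d = 0 := by
  by_contra hd0
  have hinj : Function.Injective (fun a : A => (⟨d * a, hd a a.2⟩ : A)) := by
    intro a b hab
    have : d * (a : F) = d * b := congrArg Subtype.val hab
    exact Subtype.ext (mul_left_cancel₀ hd0 this)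
  obtain ⟨a, ha⟩ := (Finite.injective_iff_surjective.1 hinj) ⟨d * x, hdx⟩
  have : d * (a : F) = d * x := congrArg Subtype.val ha
  exact hx (mul_left_cancel₀ hd0 this ▸ a.2)

theorem card_mult_mul_le [Fintype F] (A : AddSubgroup F) (hA : A ≠ ⊤) :
    Nat.card (mult A) * Nat.card A ≤ Fintype.card F := by
  obtain ⟨x, hx⟩ : ∃ x, x ∉ A := by
    by_contra h
    push Not at h
    exact hA (eq_top_iff.2 fun y _ => h y)
  have hinj : Function.Injective (fun c : mult A => (QuotientAddGroup.mk ((c : F) * x) : F ⧸ A)) := by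
    intro c d hcd
    have h1 : -((c : F) * x) + (d : F) * x ∈ A := QuotientAddGroup.eq.1 hcd
    have h2 : ((d : F) - c) * x ∈ A := by
      have e : ((d : F) - c) * x = -((c : F) * x) + (d : F) * x := by ring
      rw [e]; exact h1
    have h3 := mult_inj A hx ((mult A).sub_mem d.2 c.2) h2
    exact Subtype.ext (sub_eq_zero.1 h3).symm
  have h1 := Nat.card_le_card_of_injective _ hinj
  have h2 := AddSubgroup.card_eq_card_quotient_mul_card_addSubgroup A
  rw [Nat.card_eq_fintype_card (α := F)] at h2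
  rw [h2]
  exact Nat.mul_le_mul_right _ h1

theorem card_add_one_le [Finite F] (A : AddSubgroup F) (M : Subgroup Fˣ)
    (h : ∀ t ∈ M, ∀ a ∈ A, (t : F) * a ∈ A) : Nat.card M + 1 ≤ Nat.card (mult A) := by
  have hinj : Function.Injective (fun o : Option M =>
      (o.elim (0 : mult A) (fun t => ⟨((t : Fˣ) : F), h t t.2⟩) : mult A)) := by
    intro o o' hoo
    have h1 := congrArg Subtype.val hoo
    rcases o with _ | t <;> rcases o' with _ | t'
    · rfl
    · exact absurd h1.symm (Units.ne_zero (t' : Fˣ))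
    · exact absurd h1 (Units.ne_zero (t : Fˣ))
    · exact congrArg some (Subtype.ext (Units.ext h1))
  have := Nat.card_le_card_of_injective _ hinj
  rwa [Finite.card_option] at this

/-- (part of [INV]) -/
theorem A_inv {P : Type*} [Group P] (L : Loc m F P) (S : Subgroup P) (t : Fˣ) (ht : t ∈ L.Lam S)
    (a : F) (ha : a ∈ L.A S) : (t : F) ^ 2 * a ∈ L.A S := by
  obtain ⟨w, b, l, hs⟩ := ht
  have e : L.rho w b * L.tor t * L.eps l * L.rho 0 a
      = L.rho 0 ((t : F) ^ 2 * a) * (L.rho w b * L.tor t * L.eps l) := by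
    rw [mul_assoc, L.eps_rho, Matrix.mulVec_zero, ← mul_assoc, mul_assoc (L.rho w b), L.tor_rho,
      smul_zero, ← mul_assoc, L.rho_mul, ← mul_assoc, ← mul_assoc, L.rho_mul]
    simp only [sympForm_zero_left, sympForm_zero_right, add_zero, zero_add]
    rw [add_comm b]
  have h1 : L.rho 0 ((t : F) ^ 2 * a)
      = L.rho w b * L.tor t * L.eps l * L.rho 0 a * (L.rho w b * L.tor t * L.eps l)⁻¹ := by
    rw [e, mul_inv_cancel_right]
  change L.rho 0 ((t : F) ^ 2 * a) ∈ S
  rw [h1]
  exact S.mul_mem (S.mul_mem hs ha) (S.inv_mem hs)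

end LAM

/-- [LAM] -/
theorem lam_lemma [Fintype F] (A : AddSubgroup F) (hA : A ≠ ⊤) (M : Subgroup Fˣ)
    (h : ∀ t ∈ M, ∀ a ∈ A, (t : F) * a ∈ A) :
    (Nat.card M + 1) * Nat.card A ≤ Fintype.card F :=
  (Nat.mul_le_mul_right _ (LAM.card_add_one_le A M h)).trans (LAM.card_mult_mul_le A hA)

section loc

variable {P : Type*} [Group P] [Finite P] (L : Loc m F P) (S : Subgroup P)

namespace LAM

theorem sq_stab {P : Type*} [Group P] (L : Loc m F P) (S : Subgroup P) :
    ∀ t ∈ (L.Lam S).map (powMonoidHom 2 : Fˣ →* Fˣ), ∀ a ∈ L.A S, (t : F) * a ∈ L.A S := by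
  rintro _ ⟨t, ht, rfl⟩ a ha
  have := A_inv L S t ht a ha
  simpa using this

end LAM

/-- [LAM] -/
theorem lam_A_even [Fintype F] (h2 : (2 : F) = 0) (hA : L.A S ≠ ⊤) :
    (Nat.card (L.Lam S) + 1) * Nat.card (L.A S) ≤ Fintype.card F := by
  have h := lam_lemma (L.A S) hA _ (LAM.sq_stab L S)
  have hinj : Function.Injective (powMonoidHom 2 : Fˣ →* Fˣ) := by
    intro s t hst
    have h1 : (s : F) ^ 2 = (t : F) ^ 2 := by
      have := congrArg (fun u : Fˣ => (u : F)) hst
      simpa using this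
    have h3 : ((s : F) - t) ^ 2 = 0 := by
      linear_combination h1 + (t : F) * ((t : F) - s) * h2
    exact Units.ext (sub_eq_zero.1 (pow_eq_zero_iff (two_ne_zero) |>.1 h3))
  rwa [Subgroup.card_map_of_injective hinj] at h

/-- [LAM] -/
theorem lam_A_odd [Fintype F] (hA : L.A S ≠ ⊤) :
    (Nat.card (L.Lam S) + 2) * Nat.card (L.A S) ≤ 2 * Fintype.card F := by
  classical
  have h := lam_lemma (L.A S) hA _ (LAM.sq_stab L S)
  set f : (L.Lam S) →* Fˣ := (powMonoidHom 2 : Fˣ →* Fˣ).comp (L.Lam S).subtype with hf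
  have hr : Nat.card f.range = Nat.card ((L.Lam S).map (powMonoidHom 2 : Fˣ →* Fˣ)) := by
    rw [hf, MonoidHom.range_comp, Subgroup.range_subtype]
  have hk : Nat.card f.ker ≤ 2 := by
    have hinj : Function.Injective (fun t : f.ker => decide ((t : L.Lam S) = 1)) := by
      intro s t hst
      have hs : ((s : L.Lam S) : Fˣ) ^ 2 = 1 := s.2
      have ht : ((t : L.Lam S) : Fˣ) ^ 2 = 1 := t.2
      have hiff : ((s : L.Lam S) = 1 ↔ (t : L.Lam S) = 1) := decide_eq_decide.1 hst
      have key : ∀ r : L.Lam S, (r : Fˣ) ^ 2 = 1 → r ≠ 1 → ((r : Fˣ) : F) = -1 := by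
        intro r hr hr1
        have h1 : ((r : Fˣ) : F) * ((r : Fˣ) : F) = 1 := by
          have := congrArg (fun u : Fˣ => (u : F)) hr
          simpa [sq] using this
        rcases mul_self_eq_one_iff.1 h1 with h | h
        · exact absurd (Subtype.ext (Units.ext h)) hr1
        · exact h
      by_cases hs1 : (s : L.Lam S) = 1
      · exact Subtype.ext (hs1.trans (hiff.1 hs1).symm)
      · have ht1 : (t : L.Lam S) ≠ 1 := fun h => hs1 (hiff.2 h)
        exact Subtype.ext (Subtype.ext (Units.ext ((key _ hs hs1).trans (key _ ht ht1).symm)))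
    have := Nat.card_le_card_of_injective _ hinj
    simpa using this
  have hc := Subgroup.card_mul_index f.ker
  rw [Subgroup.index_ker, hr] at hc
  have h3 : Nat.card (L.Lam S) ≤ 2 * Nat.card ((L.Lam S).map (powMonoidHom 2 : Fˣ →* Fˣ)) := by
    rw [← hc]
    exact Nat.mul_le_mul_right _ hk
  calc (Nat.card (L.Lam S) + 2) * Nat.card (L.A S)
      ≤ (2 * Nat.card ((L.Lam S).map (powMonoidHom 2 : Fˣ →* Fˣ)) + 2) * Nat.card (L.A S) :=
        Nat.mul_le_mul_right _ (by omega)
    _ = 2 * ((Nat.card ((L.Lam S).map (powMonoidHom 2 : Fˣ →* Fˣ)) + 1) * Nat.card (L.A S)) := by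
        ring
    _ ≤ 2 * Fintype.card F := Nat.mul_le_mul_left _ h

end loc

end Cfsg.Agent.Lib.Helper63.MinSp
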