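import Mathlib
import Cfsg.Agent.Lib.Helper14.MinSp.Defs

/-! # S2141 farm (helper14), pieces [S1a] [S1t] [S1b] (helper63) -/

set_option autoImplicit false

namespace Cfsg.Agent.Lib.Helper63.MinSp

open Matrix Cfsg.Agent.Lib.Helper13 Cfsg.Agent.Lib.Helper5 Cfsg.Agent.Lib.Helper14.MinSp

variable {F : Type*} [Field F] {m : ℕ}

/-- [S1a] -/
theorem rs_hyp (H : Subgroup (Matrix.symplecticGroup (Fin m) F)) (u v : Fin m ⊕ Fin m → F)
    (hu : ∀ c, tv u c ∈ H) (hv : ∀ c, tv v c ∈ H) (huv : Cfsg.sympForm m F u v ≠ 0) (a b c : F) :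
    tv (a • u + b • v) c ∈ H := by
  by_cases ha : a = 0
  · subst ha
    rw [zero_smul, zero_add, tv_smul]
    exact hv _
  · set s := Cfsg.sympForm m F u v with hs
    have h1 : (tv v (b / (a * s))).1 *ᵥ u = u + (b / a) • v := by
      rw [tv_mulVec, ← hs]
      congr 2
      field_simp
    have h2 : a • u + b • v = a • (u + (b / a) • v) := by
      rw [smul_add, smul_smul]
      congr 2
      field_simp
    rw [h2, tv_smul, ← h1, ← tv_conj]
    exact H.mul_mem (H.mul_mem (hv _) (hu _)) (H.inv_mem (hv _))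

/-- [S1t] three points of a totally isotropic line -/
theorem rs_three (H : Subgroup (Matrix.symplecticGroup (Fin m) F)) (z x : Fin m ⊕ Fin m → F)
    (hzx : Cfsg.sympForm m F z x = 0) (lam : F) (h0 : lam ≠ 0) (h1 : lam ≠ 1)
    (hx : ∀ c, tv x c ∈ H) (h2 : ∀ c, tv (z + x) c ∈ H) (h3 : ∀ c, tv (z + lam • x) c ∈ H) (c : F) :
    tv z c ∈ H := by
  have hxz : Cfsg.sympForm m F x z = 0 := by rw [sympForm_swap, hzx, neg_zero]
  have key : ∀ c' : F, tv (z + x) (-c' * lam) * tv (z + lam • x) c'
      = tv z (c' * (1 - lam)) * tv x (c' * lam * (lam - 1)) := by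
    intro c'
    apply sp_ext
    intro y
    rw [sp_mul_mulVec, sp_mul_mulVec, tv_mulVec, tv_mulVec, tv_mulVec, tv_mulVec]
    simp only [sympForm_add_left, sympForm_add_right, sympForm_smul_left, sympForm_smul_right,
      sympForm_self, hzx, hxz]
    module
  have h1' : 1 - lam ≠ 0 := sub_ne_zero.2 (Ne.symm h1)
  have e : tv z c = tv (z + x) (-(c / (1 - lam)) * lam) * tv (z + lam • x) (c / (1 - lam))
      * (tv x (c / (1 - lam) * lam * (lam - 1)))⁻¹ := by
    rw [key, mul_inv_cancel_right]
    congr 1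
    field_simp
  rw [e]
  exact H.mul_mem (H.mul_mem (h2 _) (h3 _)) (H.inv_mem (hx _))

/-- [S1b] -/
theorem rs_ti [Fintype F] (hq : 3 ≤ Fintype.card F)
    (H : Subgroup (Matrix.symplecticGroup (Fin m) F)) (u w v : Fin m ⊕ Fin m → F)
    (hu : ∀ c, tv u c ∈ H) (hw : ∀ c, tv w c ∈ H) (hv : ∀ c, tv v c ∈ H)
    (huw : Cfsg.sympForm m F u w = 0) (huv : Cfsg.sympForm m F u v ≠ 0)
    (hwv : Cfsg.sympForm m F w v ≠ 0) (a b c : F) :
    tv (a • u + b • w) c ∈ H := by
  classical
  have hwu : Cfsg.sympForm m F w u = 0 := by rw [sympForm_swap, huw, neg_zero]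
  have hvu : Cfsg.sympForm m F v u ≠ 0 := by rw [sympForm_swap]; exact neg_ne_zero.2 huv
  have hvw : Cfsg.sympForm m F v w ≠ 0 := by rw [sympForm_swap]; exact neg_ne_zero.2 hwv
  have claim : ∀ a b : F, a * Cfsg.sympForm m F u v + b * Cfsg.sympForm m F w v ≠ 0 →
      ∀ c, tv (a • u + b • w) c ∈ H := by
    intro a b hab
    have y1 : ∀ c, tv ((1 : F) • v + a • u) c ∈ H := fun c => rs_hyp H v u hv hu hvu 1 a c
    have hy1 : Cfsg.sympForm m F ((1 : F) • v + a • u) w ≠ 0 := by
      simp only [sympForm_add_left, sympForm_smul_left, huw, mul_zero, add_zero, one_mul]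
      exact hvw
    have y2 : ∀ c, tv ((1 : F) • ((1 : F) • v + a • u) + b • w) c ∈ H :=
      fun c => rs_hyp H _ w y1 hw hy1 1 b c
    have hy2 : Cfsg.sympForm m F ((1 : F) • ((1 : F) • v + a • u) + b • w) v ≠ 0 := by
      simp only [sympForm_add_left, sympForm_smul_left, sympForm_self, mul_zero, zero_add, one_mul]
      exact hab
    intro c
    have := rs_hyp H _ v y2 hv hy2 1 (-1) c
    have e : (1 : F) • ((1 : F) • ((1 : F) • v + a • u) + b • w) + (-1 : F) • v = a • u + b • w := by
      module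
    rwa [e] at this
  by_cases hab : a * Cfsg.sympForm m F u v + b * Cfsg.sympForm m F w v = 0
  · obtain ⟨lam, hlam⟩ : ∃ lam : F, lam ∉ ({0, 1} : Finset F) := by
      by_contra hcon
      push Not at hcon
      have h1 : (Finset.univ : Finset F) ⊆ {0, 1} := fun x _ => hcon x
      have h2 := Finset.card_le_card h1
      have h3 : ({0, 1} : Finset F).card ≤ 2 := Finset.card_le_two
      rw [Finset.card_univ] at h2
      omega
    simp only [Finset.mem_insert, Finset.mem_singleton, not_or] at hlam
    apply rs_three H (a • u + b • w) u _ lam hlam.1 hlam.2 hu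
    · intro c
      have := claim (a + 1) b (by
        have : (a + 1) * Cfsg.sympForm m F u v + b * Cfsg.sympForm m F w v
            = Cfsg.sympForm m F u v := by linear_combination hab
        rw [this]; exact huv) c
      have e : (a + 1) • u + b • w = a • u + b • w + u := by module
      rwa [e] at this
    · intro c
      have := claim (a + lam) b (by
        have : (a + lam) * Cfsg.sympForm m F u v + b * Cfsg.sympForm m F w v
            = lam * Cfsg.sympForm m F u v := by linear_combination hab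
        rw [this]; exact mul_ne_zero hlam.1 huv) c
      have e : (a + lam) • u + b • w = a • u + b • w + lam • u := by module
      rwa [e] at this
    · simp only [sympForm_add_left, sympForm_smul_left, sympForm_self, hwu, mul_zero, add_zero]
  · exact claim a b hab c

end Cfsg.Agent.Lib.Helper63.MinSp
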