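import Mathlib
import Cfsg.Agent.Lib.Helper14.MinSp.Defs
import Cfsg.Agent.S0806
import Cfsg.Agent.S0244

/-! # S2141 farm (helper14), piece [BASE] (helper63) -/

set_option autoImplicit false

namespace Cfsg.Agent.Lib.Helper63.MinSp

open Matrix Cfsg.Agent.Lib.Helper13 Cfsg.Agent.Lib.Helper5 Cfsg.Agent.Lib.Helper14.MinSp

variable {F : Type*} [Field F] {m : ℕ}

namespace BASE

/-- `Sp_2 → SL_2` -/
def toSL (F : Type*) [Field F] :
    Matrix.symplecticGroup (Fin 1) F →* Matrix.SpecialLinearGroup (Fin 2) F where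
  toFun A := ⟨Matrix.reindexAlgEquiv F F finSumFinEquiv A.1, by
    rw [Matrix.det_reindexAlgEquiv]; exact (Cfsg.Agent.S0244.result A.1).1 A.2⟩
  map_one' := Subtype.ext (map_one (Matrix.reindexAlgEquiv F F finSumFinEquiv))
  map_mul' A B := Subtype.ext (map_mul (Matrix.reindexAlgEquiv F F finSumFinEquiv) A.1 B.1)

theorem toSL_bijective : Function.Bijective (toSL F) := by
  constructor
  · intro A B h
    have h1 : Matrix.reindexAlgEquiv F F finSumFinEquiv A.1
        = Matrix.reindexAlgEquiv F F finSumFinEquiv B.1 := congrArg Subtype.val h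
    exact Subtype.ext ((Matrix.reindexAlgEquiv F F finSumFinEquiv).injective h1)
  · intro B
    refine ⟨⟨(Matrix.reindexAlgEquiv F F finSumFinEquiv).symm B.1, ?_⟩, ?_⟩
    · rw [Cfsg.Agent.S0244.result]
      have := Matrix.det_reindexAlgEquiv F F (finSumFinEquiv (m := 1) (n := 1))
        ((Matrix.reindexAlgEquiv F F finSumFinEquiv).symm B.1)
      rw [AlgEquiv.apply_symm_apply] at this
      rw [← this]
      exact B.2
    · apply Subtype.ext
      exact AlgEquiv.apply_symm_apply _ _

theorem center_eq_bot (h2 : (2 : F) = 0) :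
    Subgroup.center (Matrix.SpecialLinearGroup (Fin 2) F) = ⊥ := by
  rw [eq_bot_iff]
  intro A hA
  obtain ⟨r, hr, hA⟩ := Matrix.SpecialLinearGroup.mem_center_iff.1 hA
  rw [Fintype.card_fin] at hr
  have h3 : (r - 1) ^ 2 = 0 := by linear_combination hr + (1 - r) * h2
  have h4 : r = 1 := sub_eq_zero.1 (pow_eq_zero_iff (two_ne_zero) |>.1 h3)
  rw [Subgroup.mem_bot]
  apply Subtype.ext
  rw [← hA, h4]
  simp

end BASE

/-- [BASE] -/
theorem base_even [Fintype F] (h2 : (2 : F) = 0) (hq : 4 ≤ Fintype.card F)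
    (R : Subgroup (Matrix.symplecticGroup (Fin 1) F)) (hR : R ≠ ⊤) :
    NN (Fintype.card F) 1 ≤ R.index := by
  have hNN : NN (Fintype.card F) 1 = Fintype.card F + 1 := by
    unfold NN
    rw [mul_one, Cfsg.Agent.S0806.sq_sub_one _ (by omega)]
    exact Nat.mul_div_cancel_left _ (by omega)
  rw [hNN]
  have heven : 2 ∣ Fintype.card F := by
    haveI : CharP F 2 := CharTwo.of_one_ne_zero_of_two_eq_zero one_ne_zero h2
    obtain ⟨n, _, hn⟩ := FiniteField.card F 2
    rw [hn]
    exact dvd_pow_self 2 n.ne_zero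
  have hq' : Fintype.card F ∉ ({2, 3, 5, 7, 9, 11} : Finset ℕ) := by
    simp only [Finset.mem_insert, Finset.mem_singleton, not_or]
    omega
  set π : Matrix.SpecialLinearGroup (Fin 2) F →* Matrix.ProjectiveSpecialLinearGroup (Fin 2) F :=
    QuotientGroup.mk' _ with hπ
  have hπb : Function.Bijective π := by
    constructor
    · rw [← MonoidHom.ker_eq_bot_iff, hπ, QuotientGroup.ker_mk', BASE.center_eq_bot h2]
    · exact QuotientGroup.mk'_surjective _
  have hb : Function.Bijective (π.comp (BASE.toSL F)) := hπb.comp BASE.toSL_bijective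
  rw [← Subgroup.index_map_of_bijective hb R]
  apply (Cfsg.Agent.S0806.result rfl hq').1
  intro h
  apply hR
  rw [← Subgroup.comap_map_eq_self_of_injective hb.1 R, h, Subgroup.comap_top]

end Cfsg.Agent.Lib.Helper63.MinSp
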